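import Cfsg.Agent.H97.JmKD
import Cfsg.Agent.H33.J4Odd1

/-!
# Counting cosets and conjugates by their keys
-/

set_option autoImplicit false

namespace Cfsg.Agent.H97.JM

open Subgroup Cfsg.Agent.H42 Cfsg.Agent.H46 Cfsg.Agent.H17.J4R

universe u

namespace VC

theorem gen {G : Type u} [Group G] [Finite G] (K Z : Subgroup G) (hZK : Z ≤ K) (keys : List ℕ)
    (hnd : keys.Nodup) (R : ℕ → G → Prop) (hR : ∀ key ∈ keys, ∃ a ∈ K, R key a)
    (hinj : ∀ k k' a z, z ∈ Z → R k a → R k' (a * z) → k = k') :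
    keys.length * Nat.card Z ≤ Nat.card K ∧ (Nat.card K ≤ keys.length * Nat.card Z →
      ∀ n ∈ K, ∃ key ∈ keys, ∃ a ∈ K, R key a ∧ a⁻¹ * n ∈ Z) := by
  classical
  choose a haK haR using hR
  let f : {k // k ∈ keys.toFinset} × Z → K := fun y =>
    ⟨a y.1.1 (List.mem_toFinset.mp y.1.2) * y.2.1, K.mul_mem (haK _ _) (hZK y.2.2)⟩
  have hf : Function.Injective f := by
    rintro ⟨⟨k, hk⟩, ⟨z, hz⟩⟩ ⟨⟨k', hk'⟩, ⟨z', hz'⟩⟩ h
    have h1 : a k (List.mem_toFinset.mp hk) * z = a k' (List.mem_toFinset.mp hk') * z' :=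
      congrArg Subtype.val h
    have h2 : a k' (List.mem_toFinset.mp hk') = a k (List.mem_toFinset.mp hk) * (z * z'⁻¹) := by
      rw [← mul_assoc, h1, mul_inv_cancel_right]
    have h3 : k = k' := hinj k k' _ _ (Z.mul_mem hz (Z.inv_mem hz')) (haR k _) (h2 ▸ haR k' _)
    subst h3
    have h4 : z = z' := mul_left_cancel h1
    subst h4
    rfl
  have hc : Nat.card ({k // k ∈ keys.toFinset} × Z) = keys.length * Nat.card Z := by
    rw [Nat.card_prod, Nat.card_eq_fintype_card, Fintype.card_coe,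
      List.toFinset_card_of_nodup hnd]
  refine ⟨hc ▸ Nat.card_le_card_of_injective f hf, fun hle n hn => ?_⟩
  have hb : Function.Bijective f := hf.bijective_of_nat_card_le (hc ▸ hle)
  obtain ⟨⟨⟨k, hk⟩, ⟨z, hz⟩⟩, e⟩ := hb.2 ⟨n, hn⟩
  have h1 : a k (List.mem_toFinset.mp hk) * z = n := congrArg Subtype.val e
  refine ⟨k, List.mem_toFinset.mp hk, a k (List.mem_toFinset.mp hk), haK _ _, haR k _, ?_⟩
  rw [← h1, inv_mul_cancel_left]
  exact hz

theorem vp_key {k k' : ℕ} {x : Fin 112 → ZMod 2} (h : VP k x) (h' : VP k' x) : k = k' :=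
  ((matData.vecs (Equiv.refl _)).key_iff h h').mpr rfl

theorem inc (l : List ℕ) : ∀ b, incB l b = true → (∀ a ∈ l, b < a) ∧ l.Pairwise (· < ·) := by
  induction l with
  | nil => intro b _; simp
  | cons c l ih =>
    intro b h
    have h' : andB (ltB b c) (incB l c) = true := h
    obtain ⟨h1, h2⟩ := andB_iff.mp h'
    obtain ⟨h3, h4⟩ := ih c h2
    have h5 := ltB_iff.mp h1
    refine ⟨fun a ha => ?_, List.pairwise_cons.mpr ⟨h3, h4⟩⟩
    rcases List.mem_cons.mp ha with rfl | ha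
    · exact h5
    · exact h5.trans (h3 a ha)

end VC

theorem pVC : VC.{u} := by
  intro G _ _ ρ K M Z x p q keys hnd hg hZK hZM hx
  obtain ⟨h1, h2⟩ := VC.gen K Z hZK keys hnd (fun key a => VP key (ρ a • x) ∧
    (a = 1 ∨ ∀ H : Subgroup G, M ≤ H → a ∈ H → p ∣ Nat.card H ∧ q ∣ Nat.card H)) hg (by
      intro k k' a z hz h h'
      have h3 := h'.1
      rw [map_mul, mul_smul, hx z hz] at h3
      exact VC.vp_key h.1 h3)
  refine ⟨h1, fun hle n hn => ?_⟩
  obtain ⟨key, -, a, -, ⟨-, ha⟩, hz⟩ := h2 hle n hn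
  rcases ha with rfl | ha
  · left; simpa using hz
  · right
    intro H hM hnH
    refine ha H hM ?_
    have h3 : n * (a⁻¹ * n)⁻¹ ∈ H := H.mul_mem hnH (H.inv_mem (hM (hZM hz)))
    have h4 : n * (a⁻¹ * n)⁻¹ = a := by group
    rwa [h4] at h3

theorem pVO : VO.{u} := by
  intro G _ _ ρ K M t x p q keys hnd hg
  have hc : ∀ a z : G, z ∈ K ⊓ centralizer ({t} : Set G) →
      a * z * t * (a * z)⁻¹ = a * t * a⁻¹ := by
    intro a z hz
    have h1 : z * t = t * z := H33.J4O.mcs.mp hz.2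
    rw [mul_assoc a z t, h1]
    group
  obtain ⟨h1, h2⟩ := VC.gen K (K ⊓ centralizer ({t} : Set G)) inf_le_left keys hnd
    (fun key c => VP key (ρ (c * t * c⁻¹) • x) ∧ (c = 1 ∨ ∀ H : Subgroup G, M ≤ H →
      c * t * c⁻¹ ∈ H → p ∣ Nat.card H ∧ q ∣ Nat.card H)) hg (by
      intro k k' a z hz h h'
      have h3 := h'.1
      rw [hc a z hz] at h3
      exact VC.vp_key h.1 h3)
  refine ⟨h1, fun hle n hn => ?_⟩
  obtain ⟨key, -, a, -, ⟨-, ha⟩, hz⟩ := h2 hle n hn
  rcases ha with rfl | ha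
  · left
    have h3 : n ∈ K ⊓ centralizer ({t} : Set G) := by simpa using hz
    exact H33.J4O.mcs.mp h3.2
  · right
    intro H hM hnH
    refine ha H hM ?_
    have h3 := hc a _ hz
    rw [mul_inv_cancel_left] at h3
    rwa [← h3]

theorem pINC : INC := by
  intro l b h
  exact (VC.inc l b h).2.imp fun h => h.ne

theorem pN6 : N6.{u} := by
  intro G _ _ s hs
  rw [H33.J4O.card_orbit (normalizer ((zpowers s : Subgroup G) : Set G)) s]
  refine Nat.mul_le_mul ?_ (card_le_of_le inf_le_right)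
  have hsub : {b | ∃ h ∈ normalizer ((zpowers s : Subgroup G) : Set G), h * s * h⁻¹ = b} ⊆
      ({s, s ^ 5} : Set G) := by
    rintro b ⟨h, hh, rfl⟩
    have h1 : h * s * h⁻¹ ∈ zpowers s := H33.J4O.norm_mem hh (mem_zpowers s)
    have h2 : orderOf (h * s * h⁻¹) = 6 := by rw [H33.J4O.orderOf_cj, hs]
    obtain ⟨k, hk⟩ := (mem_powers_iff_mem_zpowers.mpr h1)
    have hk' : s ^ k = h * s * h⁻¹ := hk
    rw [← pow_mod_orderOf, hs] at hk'
    rw [← hk'] at h2 ⊢
    have h3 : k % 6 < 6 := Nat.mod_lt _ (by norm_num)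
    rw [orderOf_pow, hs] at h2
    generalize k % 6 = j at h2 h3
    interval_cases j <;> simp at h2 ⊢
  exact (Set.ncard_le_ncard hsub (Set.toFinite _)).trans ((Set.ncard_insert_le _ _).trans (by simp))

end Cfsg.Agent.H97.JM
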