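import Cfsg.Agent.H74.UVDefs

/-! Project UV, piece INV: invariance of the torus functions under translations and affine maps. -/

set_option autoImplicit false

namespace Cfsg.Agent.H9.UvInv

open Cfsg Module Cfsg.Agent.H31 Cfsg.Agent.H77.Sg Cfsg.Agent.H74.UV

universe u

variable {E K : Type u} [Field E] [Field K] [Algebra E K] {σ : E →+* E}

theorem th_add [Finite K] (q : ℕ) (ψ : AddChar E ℂ) (f g : K → ℂ) (x : K) :
    Th q ψ (fun u => f u + g u) x = Th q ψ f x + Th q ψ g x := by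
  haveI : Fintype K := Fintype.ofFinite K
  simp only [Th, finsum_eq_sum_of_fintype, add_mul, Finset.sum_add_distrib]

theorem th_trans (B : K →ₛₗ[σ] K →ₗ[E] E) (q : ℕ)
    (hB : ∀ x y, B x y = Algebra.trace E K (x ^ q ^ 11 * y)) (ψ : AddChar E ℂ) (f : K → ℂ)
    (hf : ∀ u, B u u ≠ 0 → f u = 0) (x : K) (c : E) :
    Th q ψ f (x + algebraMap E K c) = Th q ψ f x := by
  unfold Th
  refine finsum_congr fun u => ?_
  by_cases h0 : B u u = 0
  · have h1 : u ^ (q ^ 11 + 1) * (x + algebraMap E K c) =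
        u ^ (q ^ 11 + 1) * x + c • (u ^ q ^ 11 * u) := by
      rw [Algebra.smul_def, pow_succ]; ring
    rw [h1, map_add, map_smul, ← hB, h0, smul_zero, add_zero]
  · rw [hf u h0, zero_mul, zero_mul]

theorem th_scale (q : ℕ) (τ : K ≃+* K) (hτ : ∀ x, τ x = x ^ q ^ 11)
    (hσ : ∀ c : E, τ (algebraMap E K c) = algebraMap E K (σ c)) (ψ : AddChar E ℂ) (f : K → ℂ)
    (a : E) (ha : a ≠ 0) (hf : ∀ u, f (a • u) = f u) (x : K) :
    Th q ψ f (algebraMap E K (a * σ a) * x) = Th q ψ f x := by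
  unfold Th
  rw [← finsum_comp_equiv (LinearEquiv.smulOfNeZero E K a ha).toEquiv
    (f := fun u : K => f u * ψ (Algebra.trace E K (u ^ (q ^ 11 + 1) * x)))]
  refine finsum_congr fun u => ?_
  have h0 : (LinearEquiv.smulOfNeZero E K a ha).toEquiv u = a • u := rfl
  have h1 : (a • u) ^ (q ^ 11 + 1) * x = u ^ (q ^ 11 + 1) * (algebraMap E K (a * σ a) * x) := by
    rw [pow_succ (a • u), pow_succ u, ← hτ, ← hτ, Algebra.smul_def, map_mul, map_mul, hσ]; ring
  rw [h0, hf, h1]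

theorem inv : InvStmt.{u} := by
  classical
  intro E K _ _ _ _ _ σ B q R t G ψ I h hC hF hT ν hν
  obtain ⟨f, hf, hh⟩ := hF.ex ν hν
  let f₁ : K → ℂ := fun u => if B u u = 0 then f u else 0
  let f₂ : K → ℂ := fun u => if B u u = 0 then 0 else f u
  have hs : f = fun u => f₁ u + f₂ u := by
    funext u
    by_cases h0 : B u u = 0 <;> simp [f₁, f₂, h0]
  have h2 : Inv (isom B) f₂ := by
    intro g hg u
    have e : B (g u) (g u) = B u u := hg u u
    by_cases h0 : B u u = 0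
    · simp [f₂, e, h0]
    · obtain ⟨k, hk, hku⟩ := hT u (g u) e.symm h0
      simp only [f₂, e, h0, if_false]
      rw [← hku, hf k hk]
  obtain ⟨c₀, hc₀⟩ := hF.gu f₂ h2
  have h1 : ∀ u, B u u ≠ 0 → f₁ u = 0 := fun u h0 => by simp [f₁, h0]
  have key : ∀ s ∈ Rt K (q ^ 11 + 1), s ∉ Rt K (q + 1) → h ν s = Th q ψ f₁ (kap s) + c₀ := by
    intro s hs1 hs2
    have hne : s ≠ 1 := fun e => hs2 (e ▸ (Rt K (q + 1)).one_mem)
    rw [hh s hs1 hne, hs, th_add, hc₀ s hs1 hs2]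
  refine ⟨fun s hs1 s' hs1' hs2 hs2' c hc => ?_, fun hS s hs1 s' hs1' hs2 hs2' r c hr hr0 hc => ?_⟩
  · rw [key s hs1 hs2, key s' hs1' hs2', hc, th_trans B q hC.form ψ f₁ h1]
  · obtain ⟨τ, hτ, -, hσ⟩ := hC.bar
    obtain ⟨a, ha⟩ := hC.st.herm.inv.exists_norm_eq hr
    have ha0 : a ≠ 0 := by
      rintro rfl
      exact hr0 (by simpa using ha.symm)
    have hσa : σ a ≠ 0 := (map_ne_zero σ).2 ha0
    have h3 : ∀ u, f₁ (a • u) = f₁ u := by
      intro u
      have e : B (a • u) (a • u) = σ a * (a * B u u) := by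
        rw [smul_left, map_smul, smul_eq_mul]
      by_cases h0 : B u u = 0
      · obtain ⟨g, hg, hgu⟩ := hS u h0 a ha0
        have e0 : B (a • u) (a • u) = 0 := by rw [e, h0, mul_zero, mul_zero]
        simp only [f₁, e0, h0, if_true]
        rw [← hgu, hf g hg]
      · have e0 : B (a • u) (a • u) ≠ 0 := by
          rw [e]; exact mul_ne_zero hσa (mul_ne_zero ha0 h0)
        rw [h1 _ e0, h1 _ h0]
    have hr' : r = a * σ a := by rw [← ha]
    rw [key s hs1 hs2, key s' hs1' hs2', hc, th_trans B q hC.form ψ f₁ h1, hr',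
      th_scale q τ hτ hσ ψ f₁ a ha0 h3]

end Cfsg.Agent.H9.UvInv
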