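import Cfsg.Agent.H74.UVDefs

/-! Project UV (S5855, clause 4): the determinant of the stabiliser of a vector. -/

set_option autoImplicit false

namespace Cfsg.Agent.H9.UvIsost

open Cfsg Module Cfsg.Agent.H31 Cfsg.Agent.H74.UV
open Cfsg.Agent.H53.Uw (St fx mem_fx)

universe u

theorem nondegOn_fx {E V : Type u} [Field E] [AddCommGroup V] [Module E V] {σ : E →+* E}
    {B : V →ₛₗ[σ] V →ₗ[E] E} (h : IsHerm B) {g : V ≃ₗ[E] V} (hg : g ∈ isom B) {m : ℕ}
    (hm : (m : E) ≠ 0) (hgm : g ^ m = 1) : NondegOn B (fx g) := by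
  intro x hx hy
  have hxi : ∀ i : ℕ, (g ^ i) x = x := by
    intro i
    induction i with
    | zero => rfl
    | succ i ih => rw [pow_succ, LinearEquiv.mul_apply, mem_fx.1 hx, ih]
  refine h.nondeg x fun u => ?_
  have hs : ∑ i ∈ Finset.range m, (g ^ i) u ∈ fx g := by
    rw [mem_fx, map_sum]
    have e := Finset.sum_range_succ' (fun i => (g ^ i) u) m
    rw [Finset.sum_range_succ, hgm, pow_zero] at e
    rw [add_right_cancel e]
    refine Finset.sum_congr rfl fun i _ => ?_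
    rw [pow_succ', LinearEquiv.mul_apply]
  have e := hy _ hs
  rw [map_sum, Finset.sum_congr rfl (g := fun _ => B x u) fun i _ => by
    conv_lhs => rw [← hxi i]
    exact pow_mem hg i x u] at e
  rw [Finset.sum_const, Finset.card_range, nsmul_eq_mul] at e
  exact (mul_eq_zero.1 e).resolve_left hm

theorem isost : IsostStmt.{u} := by
  intro E V _ _ _ _ _ σ B q G hS hG hD w hw g hg hgw
  obtain ⟨p, hp⟩ := CharP.exists E
  have hpp : p.Prime := CharP.char_is_prime E p
  haveI : Fact p.Prime := ⟨hpp⟩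
  haveI : Finite (V ≃ₗ[E] V) := Finite.of_injective (fun f : V ≃ₗ[E] V => (f : V → V))
    DFunLike.coe_injective
  obtain ⟨k, m, hm, e⟩ := Nat.exists_eq_pow_mul_and_not_dvd (orderOf_pos g).ne' p hpp.ne_one
  have h1 : (g ^ p ^ k) ^ m = 1 := by rw [← pow_mul, ← e, pow_orderOf_eq_one]
  have hw' : w ∈ fx (g ^ p ^ k) := by
    rw [mem_fx]
    induction p ^ k with
    | zero => rfl
    | succ i ih => rw [pow_succ, LinearEquiv.mul_apply, hgw, ih]
  obtain ⟨v, hv, hvv⟩ := hS.herm.toIsHermSymm.exists_norm_ne_zero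
    (nondegOn_fx hS.herm (hG (pow_mem hg _)) (fun h0 => hm ((CharP.cast_eq_zero_iff E p m).1 h0)) h1)
    (fun h0 => hw (by rwa [h0, Submodule.mem_bot] at hw'))
  have h2 : LinearEquiv.det (g ^ p ^ k) ^ 2 = 1 := by
    by_contra h0
    exact hD ⟨v, hvv, _, pow_mem hg _, mem_fx.1 hv, h0⟩
  rw [map_pow, ← pow_mul] at h2
  refine Units.ext ?_
  have h3 := congrArg Units.val h2
  rw [Units.val_pow_eq_pow_val, Units.val_one] at h3 ⊢
  exact (ExpChar.pow_prime_pow_mul_eq_one_iff p k 2 _).1 h3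

end Cfsg.Agent.H9.UvIsost
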