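import Cfsg.Agent.H97.JmDefs

/-!
# The index of a subgroup that contains a Sylow subgroup and its normalizer
-/

set_option autoImplicit false

namespace Cfsg.Agent.H97.JM

open Subgroup

universe u

namespace SYL

theorem count {G : Type u} [Group G] [Finite G] {p : ℕ} [Fact p.Prime] (S : Sylow p G)
    (K : Subgroup G) (h : (S : Subgroup G) ≤ K) :
    ∃ n, n ≡ 1 [MOD p] ∧
      Nat.card K = Nat.card ↥(K ⊓ normalizer ((S : Subgroup G) : Set G)) * n := by
  refine ⟨Nat.card (Sylow p K), card_sylow_modEq_one p K, ?_⟩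
  have h1 := (S.subtype h).card_eq_index_normalizer
  have h2 : normalizer (((S.subtype h : Sylow p K) : Subgroup K) : Set K) =
      (normalizer ((S : Subgroup G) : Set G)).subgroupOf K := by
    rw [Sylow.coe_subtype, subgroupOf_normalizer_eq h]
  have h3 : Nat.card ↥((normalizer ((S : Subgroup G) : Set G)).subgroupOf K) =
      Nat.card ↥(K ⊓ normalizer ((S : Subgroup G) : Set G)) := by
    rw [← inf_subgroupOf_left]
    exact Nat.card_congr (subgroupOfEquivOfLe inf_le_left).toEquiv
  have h4 : Nat.card (Sylow p K) =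
      ((normalizer ((S : Subgroup G) : Set G)).subgroupOf K).index := by
    rw [← h2]; exact h1
  rw [h4, ← h3, card_mul_index]

end SYL

theorem pSYL : SYL.{u} := by
  intro G _ _ p hp S M H hSM hMH hN
  obtain ⟨a, ha, hA⟩ := SYL.count S H (hSM.trans hMH)
  obtain ⟨b, hb, hB⟩ := SYL.count S M hSM
  have e : H ⊓ normalizer ((S : Subgroup G) : Set G) =
      M ⊓ normalizer ((S : Subgroup G) : Set G) :=
    le_antisymm (le_inf hN inf_le_right) (inf_le_inf_right _ hMH)
  rw [e] at hA
  obtain ⟨k, hk⟩ := card_dvd_of_le hMH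
  have hM : 0 < Nat.card M := Nat.card_pos
  have hc : 0 < Nat.card ↥(M ⊓ normalizer ((S : Subgroup G) : Set G)) := Nat.card_pos
  have hak : a = b * k := by
    apply Nat.eq_of_mul_eq_mul_left hc
    rw [← hA, ← mul_assoc, ← hB, hk]
  rw [hk, Nat.mul_div_cancel_left _ hM]
  have h1 : k ≡ 1 [MOD p] := by
    have h2 : b * k ≡ 1 * k [MOD p] := hb.mul_right k
    rw [one_mul, ← hak] at h2
    exact h2.symm.trans ha
  have h3 : k % p = 1 % p := h1
  rw [h3, Nat.mod_eq_of_lt hp.out.one_lt]

end Cfsg.Agent.H97.JM
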