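import Cfsg.Agent.H45.OnDefs

/-!
# An involution normalizing a group of even order centralizes an involution of it
-/

set_option autoImplicit false

namespace Cfsg.Agent.H9.OnInv

open Cfsg.Agent.H45.On Subgroup

universe u

theorem inv : InvStmt.{u} := by
  intro G _ _ L t ht hL ⟨a, ha, h1, h2⟩
  classical
  haveI := Fintype.ofFinite L
  have hti : t⁻¹ = t := inv_eq_of_mul_eq_one_right ht
  have hc : ∀ b ∈ L, t * b * t⁻¹ ∈ L := fun b hb => hL ▸ cj_mem hb
  let f : Function.End L := fun b => ⟨t * b * t⁻¹, hc _ b.2⟩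
  have hf : f ^ 2 ^ 1 = 1 := by
    funext b
    apply Subtype.ext
    show t * (t * b * t⁻¹) * t⁻¹ = b
    calc t * (t * b * t⁻¹) * t⁻¹ = (t * t) * b * (t * t)⁻¹ := by group
      _ = b := by rw [ht]; group
  have h3 := Equiv.Perm.card_fixedPoints_modEq hf
  have h4 : 2 ∣ Nat.card L := by
    have : orderOf a = 2 := orderOf_eq_prime (by rw [sq, h1]) h2
    rw [← this]
    exact Subgroup.orderOf_dvd_natCard L ha
  have h5 : Nat.card ↥(L ⊓ centralizer ({t} : Set G)) = Nat.card f.fixedPoints := by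
    refine Nat.card_congr ⟨fun b => ⟨⟨b.1, b.2.1⟩, Subtype.ext ?_⟩,
      fun b => ⟨b.1.1, b.1.2, ?_⟩, fun _ => rfl, fun _ => rfl⟩
    · show t * b.1 * t⁻¹ = b.1
      rw [← mem_centralizer_singleton_iff.mp b.2.2, mul_inv_cancel_right]
    · have h6 : t * b.1.1 * t⁻¹ = b.1.1 := congrArg Subtype.val b.2
      exact mem_centralizer_singleton_iff.mpr (mul_inv_eq_iff_eq_mul.mp h6).symm
  rw [← Nat.card_eq_fintype_card, ← Nat.card_eq_fintype_card, ← h5] at h3
  have h6 : 2 ∣ Nat.card ↥(L ⊓ centralizer ({t} : Set G)) :=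
    (Nat.modEq_zero_iff_dvd).mp (h3.symm.trans h4.modEq_zero_nat)
  obtain ⟨b, hb⟩ := exists_prime_orderOf_dvd_card' 2 h6
  have h7 : orderOf (b : G) = 2 := by rw [orderOf_coe, hb]
  refine ⟨b, b.2.1, ⟨by rw [← sq, ← h7, pow_orderOf_eq_one], fun e => ?_⟩,
    (mem_centralizer_singleton_iff.mp b.2.2).symm⟩
  rw [e, orderOf_one] at h7
  exact absurd h7 (by decide)

end Cfsg.Agent.H9.OnInv
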