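import Cfsg.Agent.H18.RfSc

/-! Project RF (S3318): the piece K2. -/

set_option autoImplicit false

namespace Cfsg.Agent.H9.RfK2

open Cfsg Subgroup Cfsg.Agent.H18.MaxOff Cfsg.Agent.H18.Rf

universe u

theorem k2 (ha : K2aStmt.{u}) (hd : K2dStmt.{u}) : K2Stmt.{u} := by
  intro G _ _ V ρ ψ O Q W hG hW w hw hwz hE h hh
  have xs := hG.lc.xs
  have hwQ : w ∈ Q := (hG.lc.qv.ge hw).1
  obtain ⟨t, ht, htw⟩ := xs.exists_not_comm hwQ (fun e => hwz (e ▸ one_mem _))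
    (fun e => hwz (e ▸ mem_zpowers _))
  have htc : t ∉ C1 w := fun e => htw (mem_centralizer_singleton_iff.1 e).symm
  obtain ⟨F, hF1, hF2, hF3, hF4, hF5⟩ := ha G V ρ ψ O Q W hG hW w hw hwz hE t ht htc
  have hf := hF5 h hh
  have hc := hd G V ρ ψ O Q W hG w hw hwz hE t ht htc F hF1 hF2 hF3 hF4 _ hf
  have hs : t * t ∈ Cc V (ψ O) Q w := by
    refine hE.ab (hE.xe ⟨mul_mem ht ht, ?_⟩)
    rcases xs.sq ht with e | e <;> rw [e]
    · exact one_mem _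
    · exact mem_centralizer_singleton_iff.2 (xs.cen w hwQ).symm
  have hff : (t * h * t⁻¹ * h⁻¹) ^ 2 ∈ Cc V (ψ O) Q w := by
    have := mul_mem (inv_mem hc) (mul_mem hs ((mem_normalizer_iff.1 (hE.cn hh) _).1 (inv_mem hs)))
    convert this using 1
    rw [pow_two]; group
  have hfK : t * h * t⁻¹ * h⁻¹ ∈ Cc V (ψ O) Q w := by
    haveI : ((Cc V (ψ O) Q w).subgroupOf F).Normal :=
      normal_subgroupOf_of_le_normalizer (hF2.trans hE.cn)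
    obtain ⟨m, hm⟩ := hF4
    have h1 : (t * h * t⁻¹ * h⁻¹) ^ (2 * m + 1) ∈ Cc V (ψ O) Q w :=
      hm ▸ pow_index_mem (H := (Cc V (ψ O) Q w).subgroupOf F) ⟨_, hf⟩
    rw [pow_succ, pow_mul] at h1
    exact (mul_mem_cancel_left (pow_mem hff m)).1 h1
  obtain ⟨κ, hκ, e⟩ : ∃ κ ∈ Cc V (ψ O) Q w, h * t * h⁻¹ = κ * t :=
    ⟨_, inv_mem hfK, by group⟩
  rw [← hE.e3 t ht htc]
  refine mem_norm_of_le fun a ha => ?_
  have hb : h * a * h⁻¹ ∈ Ew V (ψ O) Q w := (mem_normalizer_iff.1 hh.2 a).1 ha.1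
  refine ⟨hb, mul_mem (mul_mem hh.1.2 ha.2.1) (inv_mem hh.1.2), ?_⟩
  rintro x rfl
  have h1 := (mem_normalizer_iff.1 hh.1.2 _).1 (ha.2.2 x rfl)
  have h2 := hκ.2.2 _ hb
  refine (mem_normalizer_iff.1 hκ.2.1 _).2 ?_
  have h3 := mul_mem h2 h1
  rw [show h * (a * x * a⁻¹ * x⁻¹) * h⁻¹ =
    h * a * h⁻¹ * (h * x * h⁻¹) * (h * a * h⁻¹)⁻¹ * (h * x * h⁻¹)⁻¹ by group, e] at h3
  convert h3 using 1
  group

end Cfsg.Agent.H9.RfK2
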