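import Cfsg.Agent.H35.RfQ
import Cfsg.Agent.H42.Enum
import Cfsg.Agent.H42.Flags

/-! Project RF (S3318): inclusions and orders in the code case (VAG). -/

set_option autoImplicit false

namespace Cfsg.Agent.H9.RfVaG

open Cfsg Subgroup Cfsg.Agent.H42 Cfsg.Agent.H18.Rf Cfsg.Agent.H35.RF Cfsg.Agent.H18.MaxOff
open Cfsg.Agent.H48 (IsWord)
open scoped commutatorElement Pointwise symmDiff

universe u

theorem o0_oct : o0 ∈ octads := toSet_mem_octads (by decide +kernel)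

theorem o0_word : IsWord o0 := ((mem_octads_iff _).1 o0_oct).1

theorem o0_card : o0.card = 8 := ((mem_octads_iff _).1 o0_oct).2

theorem o0_ne_empty : o0 ≠ ∅ := fun e => by have := o0_card; rw [e] at this; simp at this

theorem o0_ne_univ : o0 ≠ Finset.univ := fun e => by
  have := o0_card
  rw [e, Finset.card_univ, card_pt] at this
  omega

theorem mem_ms (g : M24) (c : Finset GolayPt) (i : GolayPt) : g • i ∈ g • c ↔ i ∈ c :=
  Finset.smul_mem_smul_finset_iff g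

/-- the check on translations of the affine space -/
noncomputable def chk (y : ℕ) : Bool := allB (fun a => allB (fun b =>
  force (enc (Nat.add (Nat.mul 64 a) b)) fun c =>
  force (Nat.land c oct0) fun l => Bool.rec true
    (force (Nat.xor (img y c) c) fun d => Bool.or (Nat.beq d 0) (Nat.beq d (Nat.xor oct0 16777215)))
    (Bool.or (Nat.beq l 0) (Nat.beq l oct0))) 64) 64

theorem trans {e : M24} (he : e ∈ fixS oct0) {c : Finset GolayPt} (hc : IsWord c)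
    (h : Disjoint c o0 ∨ o0 ⊆ c) : (e • c) ∆ c = ∅ ∨ (e • c) ∆ c = o0ᶜ := by
  rw [fixS_oct0_eq.1] at he
  obtain ⟨y, hy, rfl, hp⟩ := forall_gen inM_gensE16 (fuel := 20) (p := chk) (by decide +kernel) he
  obtain ⟨m, hm, rfl⟩ := (mem_codeSets_iff_enc c).1 hc
  have h1 := allB_iff.1 (allB_iff.1 hp (m / 64) (by omega)) (m % 64) (by omega)
  rw [show Nat.add (Nat.mul 64 (m / 64)) (m % 64) = m from Nat.div_add_mod m 64] at h1
  simp only [force_eq] at h1
  have h2 : Bool.or (Nat.beq (Nat.land (enc m) oct0) 0) (Nat.beq (Nat.land (enc m) oct0) oct0) =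
      true := by
    rw [Bool.or_eq_true, beq_iff, beq_iff]
    refine h.imp (toSet_disjoint_iff _ (enc_lt m)).1 fun k => ?_
    have := (toSet_subset_iff _ oct0_lt).1 k
    rwa [show Nat.land oct0 (enc m) = Nat.land (enc m) oct0 from Nat.land_comm _ _] at this
  rw [h2] at h1
  change Bool.or _ _ = true at h1
  rw [Bool.or_eq_true, beq_iff, beq_iff] at h1
  rw [toM_smul_toSet hy, ← toSet_xor]
  exact h1.imp (fun k => by rw [k, toSet_zero]) fun k => by rw [k, toSet_compl]; rfl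

theorem ncard_disj : {c : Finset GolayPt | IsWord c ∧ Disjoint c o0}.ncard = 32 := by
  rw [ncard_codeSets _ (fun n => Nat.beq (Nat.land n oct0) 0) (fun _ h => h.1) fun n hn => by
    rw [beq_iff, ← toSet_disjoint_iff _ (isCode_lt hn)]
    exact ⟨fun h => h.2, fun h => ⟨toSet_mem_codeSets hn, h⟩⟩]
  decide +kernel

theorem vaG (hK : KitGStmt.{u}) : VaGStmt.{u} := by
  intro G _ _ V ρ ψ hS hG
  obtain ⟨kM, kW, kZ, kC⟩ := hK G V ρ ψ hS hG
  have WV : WG ψ ≤ V := (closure_le _).2 (by rintro _ ⟨c, hc, -, rfl⟩; exact hG.mem c hc)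
  have z1 : ψ o0 ≠ 1 := fun e => ((hG.ker _ o0_word).1 e).elim o0_ne_empty o0_ne_univ
  have cm : ∀ (n : NN V) c, IsWord c → ⁅(n : G), ψ c⁆ = ψ ((ρ n • c) ∆ c) := by
    intro n c hc
    rw [commutatorElement_def, hG.act n c hc, hG.add (ρ n • c) _ (hc.smul (ρ n).2) hc,
      inv_eq_of_mul_eq_one_right (hS.el _ (hG.mem c hc))]
  have cW : Nat.card (WG ψ) = 2 ^ 5 := by
    have e : (WG ψ : Set G) = ψ '' {c | IsWord c ∧ Disjoint c o0} := by
      ext w
      constructor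
      · intro hw
        obtain ⟨c, hc, rfl⟩ := hG.sur w (WV hw)
        rcases (kW c hc).1 hw with h | h
        · exact ⟨c, ⟨hc, h⟩, rfl⟩
        · refine ⟨c ∆ Finset.univ, ⟨hc.symmDiff H48.isWord_univ, ?_⟩, ?_⟩
          · refine Finset.disjoint_left.2 fun p hp hp' => ?_
            simp [Finset.mem_symmDiff, h hp'] at hp
          · rw [hG.add _ _ hc H48.isWord_univ, (hG.ker _ H48.isWord_univ).2 (Or.inr rfl), mul_one]
      · rintro ⟨c, hc, rfl⟩
        exact (kW c hc.1).2 (Or.inl hc.2)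
    rw [← SetLike.coe_sort_coe, Nat.card_coe_set_eq, e, Set.ncard_image_of_injOn, ncard_disj]
    · norm_num
    intro c hc d hd h
    have h1 : ψ (c ∆ d) = 1 := by rw [hG.add _ _ hc.1 hd.1, h, hS.el _ (hG.mem d hd.1)]
    rcases (hG.ker _ (hc.1.symmDiff hd.1)).1 h1 with k | k
    · exact symmDiff_eq_bot.1 k
    · obtain ⟨p, hp⟩ := Finset.nonempty_iff_ne_empty.2 o0_ne_empty
      have : p ∈ c ∆ d := k ▸ Finset.mem_univ p
      rw [Finset.mem_symmDiff] at this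
      rcases this with k | k
      · exact absurd hp (Finset.disjoint_left.1 hc.2 k.1)
      · exact absurd hp (Finset.disjoint_left.1 hd.2 k.1)
  have cM : Nat.card (MM V (ψ o0)) = 2 ^ 21 * 315 := by
    rw [kM, kC, show Nat.card GO = 322560 from card_stab_octad o0_oct]; norm_num
  refine ⟨⟨hS.el, hS.cen, hS.card, z1, (kW _ o0_word).2 (Or.inr subset_rfl), WV, fun v hv => ?_,
    fun r hr => ?_, fun m hm => ?_, fun m hm => ?_, fun r hr => ?_, fun r hr v hv => ?_,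
    fun r hr w hw => ?_, ⟨315, by decide, cM⟩, ⟨239085, by decide, ?_⟩, by rw [cW, hS.card]; norm_num,
    fun h => ?_⟩, cW, by rw [RG, kC, fixS_oct0_eq.2]; norm_num, cM⟩
  · exact mem_pre.2 ⟨le_normalizer hv, by rw [(hS.ker ⟨v, le_normalizer hv⟩).2 hv]; exact one_mem _⟩
  · obtain ⟨h, hr⟩ := mem_pre.1 hr
    rw [kM]
    exact mem_pre.2 ⟨h, msmul_eq_of_forall (mem_fixS.1 hr)⟩
  · rw [kM] at hm
    obtain ⟨h, hm⟩ := mem_pre.1 hm
    have hm' : ρ ⟨m, h⟩ • o0 = o0 := hm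
    refine mem_norm_of_le fun w hw => ?_
    obtain ⟨c, hc, rfl⟩ := hG.sur w (WV hw)
    rw [show m * ψ c * m⁻¹ = _ from hG.act ⟨m, h⟩ c hc]
    refine (kW _ (hc.smul (ρ ⟨m, h⟩).2)).2 ?_
    change Disjoint (ρ ⟨m, h⟩ • c) o0 ∨ o0 ⊆ ρ ⟨m, h⟩ • c
    rw [← hm']
    refine ((kW c hc).1 hw).imp (fun k => Finset.disjoint_left.2 fun p hp hp' => ?_)
      fun k => Finset.smul_finset_subset_smul_finset k
    obtain ⟨q, hq, rfl⟩ := Finset.mem_smul_finset.1 hp
    exact Finset.disjoint_left.1 k hq ((mem_ms _ _ _).1 hp')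
  · rw [kM] at hm
    obtain ⟨h, hm⟩ := mem_pre.1 hm
    have hm' : ρ ⟨m, h⟩ • o0 = o0 := hm
    refine mem_norm_of_le fun r hr => ?_
    obtain ⟨h', hr⟩ := mem_pre.1 hr
    refine (coe_mem_pre (n := ⟨m, h⟩ * ⟨r, h'⟩ * ⟨m, h⟩⁻¹)).2 (mem_fixS.2 fun p hp => ?_)
    have hp' : (ρ ⟨m, h⟩)⁻¹ • p ∈ o0 := by
      rw [← mem_ms (ρ ⟨m, h⟩), hm', smul_inv_smul]; exact hp
    rw [map_mul, map_mul, map_inv, mul_smul, mul_smul, mem_fixS.1 hr _ hp', smul_inv_smul]
  · obtain ⟨h, hr⟩ := mem_pre.1 hr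
    refine (hS.ker (⟨r, h⟩ * ⟨r, h⟩)).1 ?_
    rw [map_mul]
    exact mul_self_of_mem_fixing_octad o0_oct hr
  · obtain ⟨h, hr⟩ := mem_pre.1 hr
    obtain ⟨c, hc, rfl⟩ := hG.sur v hv
    rw [show ⁅r, ψ c⁆ = _ from cm ⟨r, h⟩ c hc]
    refine (kW _ ((hc.smul (ρ ⟨r, h⟩).2).symmDiff hc)).2 (Or.inl ?_)
    refine Finset.disjoint_left.2 fun p hp hp' => ?_
    have := mem_ms (ρ ⟨r, h⟩) c p
    rw [mem_fixS.1 hr p hp'] at this
    change p ∈ (ρ ⟨r, h⟩ • c) ∆ c at hp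
    rw [Finset.mem_symmDiff, this] at hp
    tauto
  · obtain ⟨h, hr⟩ := mem_pre.1 hr
    obtain ⟨c, hc, rfl⟩ := hG.sur w (WV hw)
    rw [show ⁅r, ψ c⁆ = _ from cm ⟨r, h⟩ c hc]
    refine (kZ _ ((hc.smul (ρ ⟨r, h⟩).2).symmDiff hc)).2 ?_
    exact (trans hr hc ((kW c hc).1 hw)).imp id fun k => Or.inr (Or.inr k)
  · have e : pre V ρ ⊤ = NN V := by
      ext g; rw [mem_pre]; exact ⟨fun ⟨h, _⟩ => h, fun h => ⟨h, trivial⟩⟩
    rw [← e, kC, card_top, card_M24]; norm_num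
  · have := card_le_of_le h
    rw [cW, H49.card_zpowers_invol z1 (hS.el _ (hG.mem _ o0_word))] at this
    omega

end Cfsg.Agent.H9.RfVaG
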