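import Cfsg.Agent.H18.X9Code
import Mathlib.GroupTheory.SpecificGroups.Alternating

/-!
# Project X9, 135 points: finite checks
-/

set_option autoImplicit false
set_option synthInstance.maxSize 100000

namespace Cfsg.Agent.H9.X9P

open Cfsg.Agent.H18.X9 Equiv

/-- the number of the solid through a point; `9` for the other vectors -/
def blk (x : ℕ) : ℕ := Nat.mod (Nat.shiftRight
  62910972270408999798820254375651601661287878758281626252870246380219733240106948249116847600016365512939856557557571034958482833118399952209093597153795002896219364837989668759108260744280988075945173048443949230274820436052756987835578709488933270741609995718630986864564053169728911161008991040578697297929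
  (Nat.mul 4 x)) 16

/-- a point in each solid -/
def rp (i : ℕ) : ℕ := col 555427279676848082945 i

/-- the check for one matrix -/
def okB (g : ℕ) : Bool := m9.P.all fun p =>
  Nat.blt (blk (ap g p)) 9 && Nat.beq (blk (ap g p)) (blk (ap g (rp (blk p))))

theorem chkT : m9.T.all okB = true := by decide +kernel
theorem chkS : m9.S.all okB = true := by decide +kernel
theorem memP : ∀ x < 256, x ∈ m9.P ↔ blk x < 9 := by decide +kernel
theorem blk_rp : ∀ i < 9, blk (rp i) = i ∧ rp i < 256 := by decide +kernel
theorem lenT : m9.T.length = 135 := by decide +kernel
theorem lenS : m9.S.length = 1344 := by decide +kernel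
theorem exT : ∀ p ∈ m9.P, ∃ g ∈ m9.T, ap g 1 = p := by decide +kernel

theorem words : ∀ k : Fin 9, k ≠ 0 → ∃ g₁ ∈ m9.T ++ m9.A, ∃ g₂ ∈ m9.T ++ m9.A, ∃ g₃ ∈ m9.T ++ m9.A,
    ∀ i : Fin 9, blk (ap g₁ (rp (blk (ap g₂ (rp (blk (ap g₃ (rp i)))))))) =
      (swap (0 : Fin 9) 1 (swap 0 k i) : Fin 9) := by
  intro k hk
  fin_cases k
  · exact absurd rfl hk
  · exact ⟨ID, by decide +kernel, ID, by decide +kernel, ID, by decide +kernel, by decide +kernel⟩
  · exact ⟨ID, by decide +kernel, ID, by decide +kernel, 291050633551942305, by decide +kernel,
      by decide +kernel⟩
  · exact ⟨9532492111866495491, by decide +kernel, 9241509994998186307, by decide +kernel,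
      3813035643068745483, by decide +kernel, by decide +kernel⟩
  · exact ⟨9386411285140559802, by decide +kernel, 9241492470465197025, by decide +kernel,
      9457871981844136128, by decide +kernel, by decide +kernel⟩
  · exact ⟨9241474535486988754, by decide +kernel, 435446200851133330, by decide +kernel,
      9604244234945430273, by decide +kernel, by decide +kernel⟩
  · exact ⟨9241439282126918323, by decide +kernel, 11616851466548994144, by decide +kernel,
      12691232604837902717, by decide +kernel, by decide +kernel⟩
  · exact ⟨9532472321873285280, by decide +kernel, 9457871981844136128, by decide +kernel,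
      9604337566069301488, by decide +kernel, by decide +kernel⟩
  · exact ⟨9241439282126918323, by decide +kernel, 3813035643068745483, by decide +kernel,
      9676850709303160976, by decide +kernel, by decide +kernel⟩

end Cfsg.Agent.H9.X9P
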